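import Mathlib
import Cfsg.Agent.Lib.Helper60.U64.Defs

/-!
# U64 (S6001), package [FRC]

A group `R` generated (up to the scalars `i ^ k`) by a Pauli frame `a1, b1, a2, b2` which `g`
conjugates to the standard frame is `g R0 g⁻¹`.
-/

set_option autoImplicit false

namespace Cfsg.Agent.Lib.Helper92.U64

open Matrix Cfsg.Agent.Lib.Helper60.U64

universe u

/-- **[FRC]** -/
theorem pkgFrC : PkgFrC.{u} := by
  intro F _ R i a1 b1 a2 b2 g hi h2 ha1 hb1 ha2 hb2 ⟨z, hz, hzv⟩ hgen hA1 hA2 hB1 hB2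
  have key : ∀ (s : GL (Fin 4) F) (m : M4 F), (s : M4 F) * (g : M4 F) = (g : M4 F) * m →
      ((g⁻¹ * s * g : GL (Fin 4) F) : M4 F) = m := by
    intro s m h
    rw [Units.val_mul, Units.val_mul, mul_assoc, h, ← mul_assoc, Units.inv_mul, one_mul]
  have hzg : (z : M4 F) * (g : M4 F) = (g : M4 F) * (i • (1 : M4 F)) := by
    rw [hzv]
    simp
  have mem0 : ∀ (s : GL (Fin 4) F) (m : M4 F), (s : M4 F) * (g : M4 F) = (g : M4 F) * m →
      (m = i • (1 : M4 F) ∨ m = mA1 F ∨ m = mA2 F ∨ m = mB1 F ∨ m = mB2 F) →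
      s ∈ (R0 i).map (MulAut.conj g).toMonoidHom := by
    intro s m h hm
    refine Subgroup.mem_map.2 ⟨g⁻¹ * s * g, Subgroup.subset_closure ?_, ?_⟩
    · show ((g⁻¹ * s * g : GL (Fin 4) F) : M4 F) = _ ∨ _
      rw [key s m h]
      exact hm
    · show (MulAut.conj g) (g⁻¹ * s * g) = s
      rw [MulAut.conj_apply]
      group
  apply le_antisymm
  · intro x hx
    obtain ⟨k, e1, f1, e2, f2, hxv⟩ := hgen x hx
    have hx' : x = z ^ k * (a1 ^ e1 * b1 ^ f1 * a2 ^ e2 * b2 ^ f2) := by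
      apply Units.ext
      rw [hxv]
      simp only [Units.val_mul, Units.val_pow_eq_pow_val, hzv]
      rw [smul_pow, one_pow, Matrix.smul_mul, one_mul]
    rw [hx']
    exact mul_mem (pow_mem (mem0 z _ hzg (Or.inl rfl)) k)
      (mul_mem (mul_mem (mul_mem (pow_mem (mem0 a1 _ hA1 (Or.inr (Or.inl rfl))) e1)
        (pow_mem (mem0 b1 _ hB1 (Or.inr (Or.inr (Or.inr (Or.inl rfl))))) f1))
        (pow_mem (mem0 a2 _ hA2 (Or.inr (Or.inr (Or.inl rfl)))) e2))
        (pow_mem (mem0 b2 _ hB2 (Or.inr (Or.inr (Or.inr (Or.inr rfl))))) f2))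
  · rw [Subgroup.map_le_iff_le_comap, R0, Subgroup.closure_le]
    intro s hs
    show (MulAut.conj g) s ∈ R
    rw [MulAut.conj_apply]
    have key2 : ∀ (t : GL (Fin 4) F), (t : M4 F) * (g : M4 F) = (g : M4 F) * (s : M4 F) →
        g * s * g⁻¹ = t := by
      intro t h
      apply Units.ext
      rw [Units.val_mul, Units.val_mul, ← h, mul_assoc, Units.mul_inv, mul_one]
    rcases hs with h | h | h | h | h
    · rw [key2 z (by rw [h]; exact hzg)]
      exact hz
    · rw [key2 a1 (by rw [h]; exact hA1)]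
      exact ha1
    · rw [key2 a2 (by rw [h]; exact hA2)]
      exact ha2
    · rw [key2 b1 (by rw [h]; exact hB1)]
      exact hb1
    · rw [key2 b2 (by rw [h]; exact hB2)]
      exact hb2

end Cfsg.Agent.Lib.Helper92.U64
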