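import Mathlib
import Cfsg.Agent.Lib.Helper60.U64.Defs
import Cfsg.Agent.Lib.Helper45.HermSigma

/-!
# U64 (S6001), package [UX5]

A unitary element of order `5` and determinant `1` with trace `τ + 2`, `τ ^ 2 + τ = 1`, `τ` in the
prime field: `x = blockdiag(m, 1)` with `m = [[α, -β^p], [β, α]]`, `α = τ / 2`,
`β ^ (p + 1) = 1 - α ^ 2`.
-/

set_option autoImplicit false

namespace Cfsg.Agent.Lib.Helper92.U64

open Matrix Cfsg.Agent.Lib.Helper60.U64 Cfsg.Agent.Lib.Helper45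

universe u

section bm

variable {F : Type u} [Field F]

/-- `blockdiag(a m - b, 1)` for `m = [[α, -γ], [β, α]]`. -/
def bm (α β γ a b : F) : M4 F :=
  !![a * α - b, -(a * γ), 0, 0; a * β, a * α - b, 0, 0; 0, 0, 1, 0; 0, 0, 0, 1]

theorem bm_congr (α β γ : F) {a b a' b' : F} (ha : a = a') (hb : b = b') :
    bm α β γ a b = bm α β γ a' b' := by rw [ha, hb]

theorem bm_mul (α β γ a b : F) (hrel : γ * β = 1 - α ^ 2) :
    bm α β γ a b * bm α β γ 1 0 = bm α β γ (2 * a * α - b) a := by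
  ext i j
  fin_cases i <;> fin_cases j <;> simp [bm, Matrix.mul_apply, Fin.sum_univ_four] <;>
    first | ring1 | linear_combination (-a) * hrel

theorem bm_one (α β γ : F) : bm α β γ 0 (-1) = 1 := by
  ext i j
  fin_cases i <;> fin_cases j <;> simp [bm]

theorem bm_pow_five (α β γ : F) (hrel : γ * β = 1 - α ^ 2) (hα : 4 * α ^ 2 + 2 * α = 1) :
    bm α β γ 1 0 ^ 5 = 1 := by
  have e2 : bm α β γ 1 0 * bm α β γ 1 0 = bm α β γ (2 * α) 1 := by
    rw [bm_mul α β γ 1 0 hrel]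
    exact bm_congr α β γ (by ring) rfl
  have e3 : bm α β γ 1 0 * bm α β γ 1 0 * bm α β γ 1 0 = bm α β γ (4 * α ^ 2 - 1) (2 * α) := by
    rw [e2, bm_mul α β γ _ _ hrel]
    exact bm_congr α β γ (by ring) rfl
  have e4 : bm α β γ 1 0 * bm α β γ 1 0 * bm α β γ 1 0 * bm α β γ 1 0 =
      bm α β γ (8 * α ^ 3 - 4 * α) (4 * α ^ 2 - 1) := by
    rw [e3, bm_mul α β γ _ _ hrel]
    exact bm_congr α β γ (by ring) rfl
  have e5 : bm α β γ 1 0 * bm α β γ 1 0 * bm α β γ 1 0 * bm α β γ 1 0 * bm α β γ 1 0 =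
      bm α β γ 0 (-1) := by
    rw [e4, bm_mul α β γ _ _ hrel]
    exact bm_congr α β γ (by linear_combination (4 * α ^ 2 - 2 * α - 1) * hα)
      (by linear_combination (2 * α - 1) * hα)
  rw [pow_succ, pow_succ, pow_succ, pow_succ, pow_one, e5, bm_one]

theorem bm_mul_inv (α β γ : F) (hrel : γ * β = 1 - α ^ 2) :
    bm α β γ 1 0 * bm α (-β) (-γ) 1 0 = 1 := by
  ext i j
  fin_cases i <;> fin_cases j <;> simp [bm, Matrix.mul_apply, Fin.sum_univ_four] <;>
    first | ring1 | linear_combination hrel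

theorem bm_inv_mul (α β γ : F) (hrel : γ * β = 1 - α ^ 2) :
    bm α (-β) (-γ) 1 0 * bm α β γ 1 0 = 1 := by
  ext i j
  fin_cases i <;> fin_cases j <;> simp [bm, Matrix.mul_apply, Fin.sum_univ_four] <;>
    first | ring1 | linear_combination hrel

theorem bm_det (α β γ : F) (hrel : γ * β = 1 - α ^ 2) : (bm α β γ 1 0).det = 1 := by
  rw [Matrix.det_succ_row_zero]
  simp [Fin.sum_univ_succ, Matrix.det_fin_three, bm, Fin.succAbove]
  linear_combination hrel

theorem bm_trace (α β γ : F) : (bm α β γ 1 0).trace = 2 * α + 2 := by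
  simp [Matrix.trace, Fin.sum_univ_four, bm]
  ring

theorem bm_gram (α β γ : F) (hrel : γ * β = 1 - α ^ 2) :
    (bm α β γ 1 0)ᵀ * bm α γ β 1 0 = 1 := by
  ext i j
  fin_cases i <;> fin_cases j <;> simp [bm, Matrix.mul_apply, Fin.sum_univ_four] <;>
    first | ring1 | linear_combination hrel

end bm

/-- **[UX5]** -/
theorem pkgUX5 : PkgUX5.{u} := by
  intro F _ _ p hF hp hp4 τ hτ hτp
  classical
  -- the characteristic
  obtain ⟨p', k, hp', hchar, hpk⟩ := q_prime_pow hF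
  obtain ⟨rfl, -⟩ := (Nat.Prime.pow_eq_iff hp).1 hpk.symm
  haveI := hchar
  have h2 : (2 : F) ≠ 0 := by
    intro h
    have h' : ((2 : ℕ) : F) = 0 := by exact_mod_cast h
    have hd := Nat.le_of_dvd (by norm_num) ((CharP.cast_eq_zero_iff F p' 2).1 h')
    have := hp.two_le
    omega
  have h5 : (5 : F) ≠ 0 := by
    intro h
    have h' : ((5 : ℕ) : F) = 0 := by exact_mod_cast h
    have hd := (CharP.cast_eq_zero_iff F p' 5).1 h'
    rcases (Nat.dvd_prime (by norm_num : Nat.Prime 5)).1 hd with h1 | h1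
    · exact hp.one_lt.ne' h1
    · omega
  have h2p : (2 : F) ^ p' = 2 := (sigmaQ_apply hF (2 : F)).symm.trans (map_ofNat (sigmaQ hF) 2)
  -- `α = τ / 2`
  obtain ⟨α, h2α⟩ : ∃ α : F, 2 * α = τ := ⟨τ * 2⁻¹, by field_simp⟩
  have hα : 4 * α ^ 2 + 2 * α = 1 := by
    rw [← h2α] at hτ
    linear_combination hτ
  have hαp : α ^ p' = α := by
    have h1 : (2 * α) ^ p' = 2 * α := by rw [h2α]; exact hτp
    rw [mul_pow, h2p] at h1
    exact mul_left_cancel₀ h2 h1
  have hc0 : (1 - α ^ 2 : F) ≠ 0 := by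
    intro h
    apply h5
    linear_combination (-(8 * α - 8)) * h - (2 * α - 3) * hα
  have hc0p : (1 - α ^ 2 : F) ^ p' = 1 - α ^ 2 := by
    rw [conj_sub hF, one_pow, ← pow_mul, mul_comm, pow_mul, hαp]
  -- `β` of norm `1 - α ^ 2`
  have hcard := norm_fiber_card hF (1 - α ^ 2) hc0 hc0p
  have hne : Nonempty {x : F // x ^ (p' + 1) = 1 - α ^ 2} := by
    by_contra hne
    rw [not_nonempty_iff] at hne
    rw [Nat.card_of_isEmpty] at hcard
    omega
  obtain ⟨⟨β, hβ⟩⟩ := hne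
  have hrel : β ^ p' * β = 1 - α ^ 2 := by rw [← pow_succ]; exact hβ
  have hβ0 : β ≠ 0 := by
    intro h
    rw [h, zero_pow (by omega)] at hβ
    exact hc0 hβ.symm
  -- the element
  refine ⟨⟨bm α β (β ^ p') 1 0, bm α (-β) (-(β ^ p')) 1 0, bm_mul_inv α β _ hrel,
    bm_inv_mul α β _ hrel⟩, ⟨?_, ?_⟩, ?_, ?_, ?_, ?_⟩
  · -- unitary
    have hmap : (bm α β (β ^ p') 1 0).map (sigmaQ hF) = bm α (β ^ p') β 1 0 := by
      ext i j
      fin_cases i <;> fin_cases j <;>
        simp [bm, sigmaQ_apply, hαp, conj_neg hF, conj_conj hF, conj_zero hF]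
    have hgram : (bm α β (β ^ p') 1 0)ᵀ * (bm α β (β ^ p') 1 0).map (sigmaQ hF) = 1 := by
      rw [hmap]
      exact bm_gram α β _ hrel
    exact (isHermIso_iff_gram hF _).2 hgram
  · -- determinant one
    have hk : (⟨bm α β (β ^ p') 1 0, bm α (-β) (-(β ^ p')) 1 0, bm_mul_inv α β _ hrel,
        bm_inv_mul α β _ hrel⟩ : GL (Fin 4) F) ∈
        (Matrix.GeneralLinearGroup.det : GL (Fin 4) F →* Fˣ).ker := by
      rw [MonoidHom.mem_ker]
      exact Units.ext (bm_det α β _ hrel)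
    exact hk
  · -- order five
    apply Units.ext
    rw [Units.val_pow_eq_pow_val]
    exact bm_pow_five α β _ hrel hα
  · -- trace
    show (bm α β (β ^ p') 1 0).trace = τ + 2
    rw [bm_trace, h2α]
  · -- trace of the inverse
    show (bm α (-β) (-(β ^ p')) 1 0).trace = τ + 2
    rw [bm_trace, h2α]
  · -- not scalar
    intro c hc
    have h10 := congrFun (congrFun hc 1) 0
    simp [bm] at h10
    exact hβ0 h10

end Cfsg.Agent.Lib.Helper92.U64
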